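import Cfsg.Agent.H25.PF14.Solvable
import Mathlib.LinearAlgebra.Matrix.GeneralLinearGroup.Defs
import Mathlib.GroupTheory.Perm.Cycle.Type
import Mathlib.LinearAlgebra.Matrix.SpecialLinearGroup
import Mathlib.Tactic.LinearCombination

/-!
Two non-commuting transvections of a plane generate a group containing `-1` in odd characteristic, and the
embedding of such a plane group into a larger general linear group.
-/

set_option autoImplicit false

namespace Cfsg.Agent.H60.SLSub

open Matrix
open scoped MatrixGroups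

variable {F : Type*} [Field F]

/-- The upper transvection. -/
def upT : SL(2, F) := ⟨!![1, 1; 0, 1], by simp [Matrix.det_fin_two_of]⟩

/-- The lower transvection. -/
def loT (l : F) : SL(2, F) := ⟨!![1, 0; l, 1], by simp [Matrix.det_fin_two_of]⟩

theorem upT_coe : ((upT : SL(2, F)) : Matrix (Fin 2) (Fin 2) F) = !![1, 1; 0, 1] := rfl

theorem loT_coe (l : F) : ((loT l : SL(2, F)) : Matrix (Fin 2) (Fin 2) F) = !![1, 0; l, 1] := rfl

/-- An involution of the special linear group of a plane is `-1`. -/
theorem eq_neg_one_of_sq (h2 : (2 : F) ≠ 0) {x : SL(2, F)} (hx : x * x = 1)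
    (hx1 : x ≠ 1) : x = -1 := by
  have e := fun i j => congrArg (fun y : SL(2, F) => (y : Matrix (Fin 2) (Fin 2) F) i j) hx
  have a00 := e 0 0
  have a01 := e 0 1
  have a10 := e 1 0
  have a11 := e 1 1
  have hd := x.det_coe
  rw [Matrix.det_fin_two] at hd
  simp [Matrix.mul_apply, Fin.sum_univ_two] at a00 a01 a10 a11
  set a := x 0 0 with ha
  set b := x 0 1 with hb
  set c := x 1 0 with hc
  set d := x 1 1 with hd'
  have htr : a + d ≠ 0 := fun h0 => h2 (by linear_combination (-1 : F) * a00 - hd + a * h0)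
  have hb0 : b = 0 := by
    have : b * (a + d) = 0 := by linear_combination a01
    exact (mul_eq_zero.mp this).resolve_right htr
  have hc0 : c = 0 := by
    have : c * (a + d) = 0 := by linear_combination a10
    exact (mul_eq_zero.mp this).resolve_right htr
  have had : a = d := by
    have : (a + d) * (a - d) = 0 := by linear_combination a00 - a11
    exact sub_eq_zero.mp ((mul_eq_zero.mp this).resolve_left htr)
  have haa : a * a = 1 := by rw [hb0, hc0] at a00; linear_combination a00
  rcases mul_self_eq_one_iff.mp haa with h | h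
  · refine absurd ?_ hx1
    ext i j
    fin_cases i <;> fin_cases j <;> simp [← ha, ← hb, ← hc, ← hd', hb0, hc0, ← had, h]
  · ext i j
    fin_cases i <;> fin_cases j <;> simp [← ha, ← hb, ← hc, ← hd', hb0, hc0, ← had, h]

/-- A group containing two opposite transvections has no non-trivial abelian normal subgroup of odd order. -/
theorem no_abelian_normal (h2 : (2 : F) ≠ 0) {l : F} (hl : l ≠ 0) (n : SL(2, F))
    (hc : upT * n * upT⁻¹ * n = n * (upT * n * upT⁻¹))
    (hc' : loT l * n * (loT l)⁻¹ * n = n * (loT l * n * (loT l)⁻¹)) :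
    ∃ a : F, (n : Matrix (Fin 2) (Fin 2) F) = !![a, 0; 0, a] := by
  have g1 := fun i j => congrArg (fun y : SL(2, F) => (y : Matrix (Fin 2) (Fin 2) F) i j) hc
  have g2 := fun i j => congrArg (fun y : SL(2, F) => (y : Matrix (Fin 2) (Fin 2) F) i j) hc'
  have c2 := g1 0 1
  have c3 := g1 1 0
  have d2 := g2 0 1
  simp only [Matrix.SpecialLinearGroup.coe_mul, Matrix.SpecialLinearGroup.coe_inv, upT_coe, loT_coe] at c2 c3 d2
  rw [Matrix.eta_fin_two (n : Matrix (Fin 2) (Fin 2) F)] at c2 c3 d2
  simp [Matrix.adjugate_fin_two_of] at c2 c3 d2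
  set A := n 0 0
  set B := n 0 1
  set C := n 1 0
  set D := n 1 1
  have hC : C = 0 := by
    have h : (2 : F) * (C * C) = 0 := by linear_combination -c3
    exact mul_self_eq_zero.mp ((mul_eq_zero.mp h).resolve_left h2)
  have hB : B = 0 := by
    have h : 2 * l * (B * B) = 0 := by linear_combination -d2
    exact mul_self_eq_zero.mp ((mul_eq_zero.mp h).resolve_left (mul_ne_zero h2 hl))
  rw [hC, hB] at c2
  have hAD : (A - D) * (A - D) = 0 := by linear_combination c2
  have hAD' := sub_eq_zero.mp (mul_self_eq_zero.mp hAD)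
  refine ⟨A, ?_⟩
  ext i j
  fin_cases i <;> fin_cases j
  · rfl
  · exact hB
  · exact hC
  · exact hAD'.symm

/-- Two opposite transvections generate a group containing `-1`. -/
theorem neg_one_mem [Finite F] (h2 : (2 : F) ≠ 0) {l : F} (hl : l ≠ 0) :
    (-1 : SL(2, F)) ∈ Subgroup.closure ({upT, loT l} : Set SL(2, F)) := by
  classical
  set G := Subgroup.closure ({upT, loT l} : Set SL(2, F)) with hG
  have hu : upT ∈ G := Subgroup.subset_closure (by simp)
  have hlo : loT l ∈ G := Subgroup.subset_closure (by simp)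
  haveI : Finite SL(2, F) := Finite.of_injective _ Subtype.val_injective
  haveI : Fact (Nat.Prime 2) := ⟨Nat.prime_two⟩
  by_contra hneg
  by_cases heven : 2 ∣ Nat.card G
  · obtain ⟨x, hx⟩ := exists_prime_orderOf_dvd_card' 2 heven
    have hxx : (x : SL(2, F)) * x = 1 := by
      have h := pow_orderOf_eq_one x
      rw [hx, pow_two] at h
      exact congrArg Subtype.val h
    refine hneg (eq_neg_one_of_sq h2 hxx (fun h => ?_) ▸ x.2)
    have : x = 1 := Subtype.ext h
    rw [this, orderOf_one] at hx
    omega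
  have hodd : Odd (Nat.card G) := Nat.not_even_iff_odd.mp fun h => heven h.two_dvd
  haveI : Group.IsSolvable G := H25.PF14.odd_solvable G hodd
  obtain ⟨N, hNn, hNc, ⟨m, hm, hm1⟩⟩ : ∃ N : Subgroup G, N.Normal ∧ (∀ a ∈ N, ∀ b ∈ N, a * b = b * a) ∧
      ∃ m ∈ N, m ≠ 1 := by
    have hex : ∃ k, derivedSeries G k = ⊥ := (Group.isSolvable_def G).mp inferInstance
    set k := Nat.find hex with hk
    have hkspec := Nat.find_spec hex
    have hk0 : k ≠ 0 := fun h0 => by
      rw [← hk, h0, derivedSeries_zero] at hkspec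
      have h1 : (⟨upT, hu⟩ : G) ∈ (⊥ : Subgroup G) := hkspec ▸ Subgroup.mem_top _
      rw [Subgroup.mem_bot] at h1
      have h3 := congrArg (fun y : G => ((y : SL(2, F)) : Matrix (Fin 2) (Fin 2) F) 0 1) h1
      simp [upT_coe] at h3
    refine ⟨derivedSeries G (k - 1), derivedSeries_normal G _, fun a ha b hb => ?_, ?_⟩
    · have := Subgroup.commutator_mem_commutator ha hb
      rw [show (k : ℕ) = k - 1 + 1 by omega] at hk
      rw [← derivedSeries_succ, hk, hkspec, Subgroup.mem_bot, commutatorElement_eq_one_iff_mul_comm] at this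
      exact this
    · by_contra hc
      push Not at hc
      exact Nat.find_min hex (show k - 1 < k by omega) ((Subgroup.eq_bot_iff_forall _).mpr hc)
  obtain ⟨a, ha⟩ := no_abelian_normal h2 hl (m : SL(2, F))
    (congrArg Subtype.val (hNc _ (hNn.conj_mem m hm ⟨upT, hu⟩) m hm))
    (congrArg Subtype.val (hNc _ (hNn.conj_mem m hm ⟨loT l, hlo⟩) m hm))
  have hd := (m : SL(2, F)).det_coe
  rw [ha, Matrix.det_fin_two_of, mul_zero, sub_zero] at hd
  rcases mul_self_eq_one_iff.mp hd with h | h
  · refine hm1 (Subtype.ext (Subtype.ext ?_))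
    rw [ha, h]
    simp [Matrix.one_fin_two]
  · refine hneg ?_
    have : (m : SL(2, F)) = -1 := Subtype.ext (by
      rw [ha, h]
      simp [Matrix.one_fin_two])
    exact this ▸ (m : G).2

variable {ι : Type} [Fintype ι] [DecidableEq ι]

/-- The action of a plane group on a chosen plane, fixing the common kernel of the two functionals. -/
def plane (C : Matrix ι (Fin 2) F) (R : Matrix (Fin 2) ι F) (hRC : R * C = 1) : SL(2, F) →* GL ι F :=
  MonoidHom.toHomUnits
    { toFun := fun A => 1 + C * ((A : Matrix (Fin 2) (Fin 2) F) - 1) * R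
      map_one' := by simp
      map_mul' := fun A B => by
        have h : ∀ X Y : Matrix (Fin 2) (Fin 2) F, C * X * R * (C * Y * R) = C * (X * Y) * R := fun X Y => by
          rw [Matrix.mul_assoc, ← Matrix.mul_assoc R, ← Matrix.mul_assoc R, hRC, Matrix.one_mul,
            Matrix.mul_assoc C (X * Y), Matrix.mul_assoc C X, Matrix.mul_assoc X]
        rw [Matrix.add_mul, Matrix.mul_add, Matrix.mul_add, h, Matrix.SpecialLinearGroup.coe_mul,
          Matrix.one_mul, Matrix.one_mul, Matrix.mul_one, add_assoc, add_right_inj, ← Matrix.add_mul,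
          ← Matrix.add_mul, ← Matrix.mul_add, ← Matrix.mul_add]
        congr 2
        noncomm_ring }

theorem plane_coe (C : Matrix ι (Fin 2) F) (R : Matrix (Fin 2) ι F) (hRC : R * C = 1) (A : SL(2, F)) :
    (plane C R hRC A : Matrix ι ι F) = 1 + C * ((A : Matrix (Fin 2) (Fin 2) F) - 1) * R := rfl

end Cfsg.Agent.H60.SLSub
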